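import Cfsg.Agent.H634.Par.Even
import Cfsg.Agent.H755.KS.Val
import Cfsg.Agent.H501.Par.Idem
import Cfsg.Agent.H101.KS.Glue
import Cfsg.Agent.Characters.SplittingField
import Cfsg.Agent.H232.PI.Schur
import Cfsg.Agent.H298.KS.Real
import Cfsg.Agent.H421.KS.PTwo
import Cfsg.Agent.Blocks.Osima
import Cfsg.Agent.Blocks.Knorr

/-!
# The parity lemma for `2`-blocks whose characters are realized over `ℚ(ζ)`, `ζ` a root of unity of odd order

`par` : `∑_{χ ∈ B} ⟨Ind_H^G λ, χ⟩² (ν(|G|) - ν(χ(1)))` is even.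
-/

set_option autoImplicit false
set_option linter.unusedSectionVars false

namespace Cfsg.Agent.H634.Par

open Cfsg
open scoped ComplexConjugate
open Cfsg.Agent.Characters.Core Cfsg.Agent.Characters.Brauer Cfsg.Agent.Characters.SplittingField
open Cfsg.Agent.Blocks.Local

universe u v

section idem

variable {K : Type v} [Field K] {G : Type u} [Group G] [Fintype G]

/-- The coefficients of the idempotent of a linear character of `H`. -/
noncomputable def idc (H : Subgroup G) (μ : H →* K) (g : G) : K := (Nat.card H : K)⁻¹ * extZero H μ g⁻¹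

theorem idc_conv (H : Subgroup G) (μ : H →* K) (hH : (Nat.card H : K) ≠ 0) (k : G) :
    ∑ g, idc H μ g * idc H μ (g⁻¹ * k) = idc H μ k := by
  classical
  have h1 : ∀ g : G, idc H μ g * idc H μ (g⁻¹ * k) =
      if g ∈ H then (Nat.card H : K)⁻¹ * idc H μ k else 0 := by
    intro g
    by_cases hg : g ∈ H
    · rw [if_pos hg, idc, idc, idc]
      have h2 : extZero H μ (g⁻¹ * k)⁻¹ * extZero H μ g⁻¹ = extZero H μ k⁻¹ := by
        rw [← extZero_mul μ (H.inv_mem hg)]
        congr 1
        group
      rw [← h2]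
      ring
    · rw [if_neg hg, idc, extZero_notMem μ (fun h => hg (by simpa using H.inv_mem h)), mul_zero, zero_mul]
  rw [Finset.sum_congr rfl fun g _ => h1 g, ← Finset.sum_filter, Finset.sum_const]
  have h3 : (Finset.univ.filter fun g : G => g ∈ H).card = Nat.card H := by
    rw [Nat.card_eq_fintype_card, Fintype.card_subtype]
  rw [h3, nsmul_eq_mul, ← mul_assoc, mul_inv_cancel₀ hH, one_mul]

theorem idem {n : ℕ} (R : G →* Matrix (Fin n) (Fin n) K) (H : Subgroup G) (μ : H →* K) (hH : (Nat.card H : K) ≠ 0) :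
    (∑ g, idc H μ g • R g) * (∑ g, idc H μ g • R g) = ∑ g, idc H μ g • R g := by
  rw [Finset.sum_mul]
  have h1 : ∀ g : G, idc H μ g • R g * ∑ h, idc H μ h • R h = ∑ k, (idc H μ g * idc H μ (g⁻¹ * k)) • R k := by
    intro g
    rw [Finset.mul_sum, ← Equiv.sum_comp (Equiv.mulLeft g⁻¹)]
    refine Finset.sum_congr rfl fun k _ => ?_
    rw [Equiv.coe_mulLeft, smul_mul_assoc, mul_smul_comm, smul_smul, ← map_mul, mul_inv_cancel_left]
  rw [Finset.sum_congr rfl fun g _ => h1 g, Finset.sum_comm]
  refine Finset.sum_congr rfl fun k _ => ?_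
  rw [← Finset.sum_smul, idc_conv H μ hH]

end idem

variable {G : Type u} [Group G] [Fintype G] {M : Ideal AlgInt} {B : Set (IrrCharacter G)}

/-- the matrices of a representation -/
noncomputable def mat {K : Type v} [Field K] {n : ℕ} (ρ : Representation K G (Fin n → K)) :
    G →* Matrix (Fin n) (Fin n) K where
  toFun g := LinearMap.toMatrix' (ρ g)
  map_one' := by rw [map_one, LinearMap.toMatrix'_one]
  map_mul' g h := by rw [map_mul, LinearMap.toMatrix'_mul]

theorem mat_apply {K : Type v} [Field K] {n : ℕ} (ρ : Representation K G (Fin n → K)) (g : G) :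
    mat ρ g = LinearMap.toMatrix' (ρ g) := rfl

theorem trace_mat {K : Type v} [Field K] {n : ℕ} (ρ : Representation K G (Fin n → K)) (g : G) :
    (mat ρ g).trace = ρ.character g := by
  rw [mat_apply, Representation.character, LinearMap.trace_eq_matrix_trace K (Pi.basisFun K (Fin n)),
    LinearMap.toMatrix_eq_toMatrix']

theorem sch_same {K : Type v} [Field K] [Algebra K ℂ] {n : ℕ} (ρ : Representation K G (Fin n → K)) {χ : G → ℂ}
    (hχ : IsIrrCharacter G χ) (h : ∀ g, χ g = algebraMap K ℂ (ρ.character g)) (a b c d : Fin n) :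
    ∑ g, mat ρ g⁻¹ a b * mat ρ g c d = if a = d ∧ b = c then (Fintype.card G : K) / n else 0 := by
  rw [← Nat.card_eq_fintype_card]
  exact Cfsg.Agent.H232.Schur.same hχ ρ (fun g => (h g).symm) a b c d

theorem sch_diff {K : Type v} [Field K] [Algebra K ℂ] {n m : ℕ} (ρ : Representation K G (Fin n → K))
    (σ : Representation K G (Fin m → K)) {χ ψ : G → ℂ}
    (hχ : IsIrrCharacter G χ) (h : ∀ g, χ g = algebraMap K ℂ (ρ.character g))
    (hψ : IsIrrCharacter G ψ) (h' : ∀ g, ψ g = algebraMap K ℂ (σ.character g)) (hne : χ ≠ ψ) (a b : Fin n) (c d : Fin m) :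
    ∑ g, mat ρ g⁻¹ a b * mat σ g c d = 0 :=
  Cfsg.Agent.H232.Schur.diff hχ hψ hne ρ σ (fun g => (h g).symm) (fun g => (h' g).symm) a b c d

/-- **The parity lemma** (realizable form). -/
theorem par (hM : IsPModular 2 M) (hB : IsPBlock M B) {ζ : ℂ} (hζ : IsPrimitiveRoot ζ (ordCompl[2] (Nat.card G)))
    (hR : ∀ χ ∈ B, IsCharOver (IntermediateField.adjoin ℚ {ζ}) G (χ : G → ℂ)) : Cfsg.Agent.H101.KS.Par G B := by
  classical
  intro H lam hH N hN
  have hMp := isPrime_of_isPModular hM
  have : Finite (IrrCharacter G) := finite_irr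
  have := Fintype.ofFinite (IrrCharacter G)
  set K := IntermediateField.adjoin ℚ {ζ} with hK
  set m := ordCompl[2] (Nat.card G) with hm
  have hm0 : m ≠ 0 := (Nat.ordCompl_pos 2 Nat.card_pos.ne').ne'
  have hm2 : ¬ 2 ∣ m := Nat.not_dvd_ordCompl Nat.prime_two Nat.card_pos.ne'
  have : NeZero m := ⟨hm0⟩
  have hinj : Function.Injective (algebraMap K ℂ) := (algebraMap K ℂ).injective
  -- the linear character over `K`
  have hval : ∀ e : H, ∃ k : K, algebraMap K ℂ k = (lam e : ℂ) := by
    intro e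
    have h1 : (lam e : ℂ) ^ m = 1 := by
      rw [← Units.val_pow_eq_pow_val, ← map_pow]
      have h2 : e ^ m = 1 := by
        have h3 : Nat.card H ∣ m := by
          have h4 : Nat.card H ∣ ordProj[2] (Nat.card G) * m := by
            rw [hm, Nat.ordProj_mul_ordCompl_eq_self]
            exact Subgroup.card_subgroup_dvd_card H
          exact (Nat.Coprime.dvd_of_dvd_mul_left (Nat.Coprime.pow_right _ hH.coprime_two_right) h4)
        obtain ⟨c, hc⟩ := h3
        rw [hc, pow_mul, pow_card_eq_one', one_pow]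
      rw [h2, map_one, Units.val_one]
    obtain ⟨i, -, hi⟩ := hζ.eq_pow_of_pow_eq_one h1
    exact ⟨⟨ζ ^ i, pow_mem (IntermediateField.mem_adjoin_simple_self ℚ ζ) i⟩, hi⟩
  choose k hk using hval
  let μ : H →* K :=
    { toFun := k
      map_one' := hinj (by rw [hk, map_one, map_one, Units.val_one])
      map_mul' := fun a b => hinj (by rw [hk, map_mul, map_mul, hk, hk, Units.val_mul]) }
  have hμ : ∀ e : H, algebraMap K ℂ (μ e) = (lam e : ℂ) := hk
  have hHK : (Nat.card H : K) ≠ 0 := Nat.cast_ne_zero.2 Nat.card_pos.ne'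
  -- the representations
  have hR' : ∀ x : B, ∃ (n : ℕ) (ρ : Representation K G (Fin n → K)), ∀ g, ((x : IrrCharacter G) : G → ℂ) g =
      algebraMap K ℂ (ρ.character g) := fun x => hR x x.2
  choose n ρ hρ using hR'
  have hfac := fun x : B => Cfsg.Agent.H501.Par.exists_factor (idem (mat (ρ x)) H μ hHK)
  choose mm P Q hPQ hQP htr using hfac
  have hn : ∀ x : B, (((x : IrrCharacter G) : G → ℂ) 1) = (n x : ℂ) := by
    intro x
    rw [hρ, Representation.char_one, Module.finrank_fin_fun, map_natCast]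
  have hn0 : ∀ x : B, (n x : K) ≠ 0 := by
    intro x h
    have h1 := hn x
    have h2 : ((n x : K) : ℂ) = 0 := by rw [h]; rfl
    have h3 : (n x : ℂ) = 0 := by simpa using h2
    rw [h3] at h1
    exact isIrr_apply_one_ne_zero (x : IrrCharacter G).2 h1
  let D : Dat K G B :=
    { n := n
      m := mm
      R := fun x => mat (ρ x)
      P := P
      Q := Q
      i := idc H μ
      PQ := hPQ
      QP := hQP
      G0 := by
        rw [← Nat.card_eq_fintype_card]
        exact Nat.cast_ne_zero.2 Nat.card_pos.ne'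
      n0 := hn0
      sch := fun x a b c d => sch_same (ρ x) (x : IrrCharacter G).2 (hρ x) a b c d
      sch' := fun x y hxy a b c d => sch_diff (ρ x) (ρ y) (x : IrrCharacter G).2 (hρ x) (y : IrrCharacter G).2 (hρ y)
        (fun h => hxy (Subtype.ext (Subtype.ext h))) a b c d }
  -- the local ring
  let O : Subring K := (localRing M).comap (algebraMap K ℂ)
  have hO : ∀ z : K, z ∈ O ↔ MemLocalRing M (algebraMap K ℂ z) := fun z => Iff.rfl
  have hπ : (2 : K) ∈ O := by
    rw [hO, map_ofNat]
    exact memLocalRing_natCast (M := M) 2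
  have hπ' : (2 : K)⁻¹ ∉ O := by
    rw [hO, map_inv₀, map_ofNat]
    intro h
    have h1 := memLocalIdeal_mul_left h (memLocalIdeal_p hM)
    rw [Nat.cast_ofNat, inv_mul_cancel₀ two_ne_zero] at h1
    exact not_memLocalIdeal_one h1
  have hfac : ∀ z : K, z ≠ 0 → ∃ (n : ℤ) (u : K), u ∈ O ∧ u⁻¹ ∈ O ∧ z = 2 ^ n * u := by
    intro z hz
    obtain ⟨j, u, h1, h2, h3⟩ := Cfsg.Agent.H755.KS.Val.exists_unit' hM hm2 hζ.pow_eq_one z hz
    refine ⟨j, u, h2, ?_, by exact_mod_cast h1⟩
    rw [hO, map_inv₀]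
    exact h3
  -- the integrality of the idempotent
  have hi : ∀ g, D.i g ∈ O := by
    intro g
    show idc H μ g ∈ O
    rw [idc]
    refine O.mul_mem ?_ ?_
    · rw [hO, map_inv₀, map_natCast]
      exact memLocalRing_inv_natCast hM (fun h => by
        have := hH.not_two_dvd_nat
        exact this h)
    · by_cases hg : g⁻¹ ∈ H
      · rw [extZero_mem μ hg, hO, hμ]
        refine memLocalRing_of_isIntegral ?_
        refine IsIntegral.of_pow (n := Nat.card H) Nat.card_pos ?_
        rw [← Units.val_pow_eq_pow_val, ← map_pow, pow_card_eq_one', map_one, Units.val_one]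
        exact isIntegral_one
      · rw [extZero_notMem μ hg]
        exact O.zero_mem
  -- the integrality of the block idempotent
  have hblock : ∀ g, ∑ x, D.c x * (D.R x g).trace ∈ O := by
    intro g
    rw [hO]
    have h1 := Cfsg.Agent.Blocks.Osima.memLocalRing_blockCoeff hM hB g⁻¹
    convert h1 using 1
    have h2 : ∀ x : B, algebraMap K ℂ (D.c x * (D.R x g).trace) =
        (Nat.card G : ℂ)⁻¹ * (((x : IrrCharacter G) : G → ℂ) 1 * conj (((x : IrrCharacter G) : G → ℂ) g⁻¹)) := by
      intro x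
      rw [map_mul]
      have h3 : algebraMap K ℂ (D.R x g).trace = conj (((x : IrrCharacter G) : G → ℂ) g⁻¹) := by
        rw [isCharacter_apply_inv (isIrr_isCharacter (x : IrrCharacter G).2), Complex.conj_conj, hρ]
        exact congrArg _ (trace_mat (ρ x) g)
      have h4 : algebraMap K ℂ (D.c x) = (Nat.card G : ℂ)⁻¹ * ((x : IrrCharacter G) : G → ℂ) 1 := by
        rw [Dat.c, map_div₀, map_natCast, map_natCast, hn, ← Nat.card_eq_fintype_card, div_eq_inv_mul]
      rw [h3, h4, mul_assoc]
    rw [blockCoeff, map_sum, Finset.sum_congr rfl fun x _ => h2 x, ← Finset.mul_sum]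
    congr 1
    rw [← finsum_set_coe_eq_finsum_mem, finsum_eq_sum_of_fintype]
  -- the multiplicities
  have hmm : ∀ x : B, mm x = N x := by
    intro x
    have h1 := congrArg (algebraMap K ℂ) (htr x)
    rw [map_natCast, Matrix.trace_sum, map_sum] at h1
    have h2 : ∀ g : G, algebraMap K ℂ (idc H μ g • mat (ρ x) g).trace =
        (Nat.card H : ℂ)⁻¹ * (extendByZero H (fun h => (lam h : ℂ)) g⁻¹ * ((x : IrrCharacter G) : G → ℂ) g) := by
      intro g
      rw [Matrix.trace_smul, smul_eq_mul, map_mul, trace_mat, ← hρ, idc, map_mul, map_inv₀, map_natCast,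
        ← extendByZero_eq, mul_assoc]
      congr 2
      exact congrArg (fun θ => extendByZero H θ g⁻¹) (funext hμ)
    rw [Finset.sum_congr rfl fun g _ => h2 g, ← Finset.mul_sum] at h1
    have h3 : ∑ g : G, extendByZero H (fun h => (lam h : ℂ)) g⁻¹ * ((x : IrrCharacter G) : G → ℂ) g =
        ∑ h : H, (lam h : ℂ) * conj (((x : IrrCharacter G) : G → ℂ) h) := by
      rw [← Equiv.sum_comp (Equiv.inv G)]
      have h4 : ∀ g : G, extendByZero H (fun h => (lam h : ℂ)) (Equiv.inv G g)⁻¹ *
          ((x : IrrCharacter G) : G → ℂ) (Equiv.inv G g) =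
          if h : g ∈ H then (lam ⟨g, h⟩ : ℂ) * conj (((x : IrrCharacter G) : G → ℂ) g) else 0 := by
        intro g
        rw [Equiv.inv_apply, inv_inv, isCharacter_apply_inv (isIrr_isCharacter (x : IrrCharacter G).2)]
        by_cases hg : g ∈ H
        · rw [dif_pos hg, extendByZero_mem H _ hg]
        · rw [dif_neg hg, extendByZero_notMem H _ hg, zero_mul]
      rw [Finset.sum_congr rfl fun g _ => h4 g, ← Finset.sum_subset (Finset.subset_univ
        (Finset.univ.filter fun g : G => g ∈ H))]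
      · rw [Finset.sum_subtype (p := fun g : G => g ∈ H) _ (by simp)]
        refine Finset.sum_congr rfl fun h _ => ?_
        rw [dif_pos h.2]
      · intro g _ hg
        rw [dif_neg (by simpa using hg)]
    have h5 := hN (x : IrrCharacter G)
    rw [classInner_indFun H inferInstance _ _ (isIrr_isClassFunction (x : IrrCharacter G).2)] at h5
    have h6 : (mm x : ℂ) = (N x : ℂ) := by
      rw [h5, ← h1, h3]
      rfl
    exact_mod_cast h6
  -- the exponents
  have hexp : ∀ x : B, ∃ w : K, w ∈ O ∧ w⁻¹ ∈ O ∧ D.c x * 2 ^ ((Nat.card G).factorization 2 -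
      (charDegree ((x : IrrCharacter G) : G → ℂ)).factorization 2) = w := by
    intro x
    have hd : charDegree ((x : IrrCharacter G) : G → ℂ) = n x :=
      Cfsg.Agent.Blocks.Knorr.charDegree_of_natCast (hn x)
    have hdvd : n x ∣ Nat.card G := hd ▸ Cfsg.Agent.Blocks.Knorr.charDegree_dvd (x : IrrCharacter G).2
    have hnx : n x ≠ 0 := fun h => hn0 x (by rw [h, Nat.cast_zero])
    have hG0 : Nat.card G ≠ 0 := Nat.card_pos.ne'
    have hle : (n x).factorization 2 ≤ (Nat.card G).factorization 2 :=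
      (Nat.factorization_le_iff_dvd hnx hG0).2 hdvd 2
    refine ⟨((ordCompl[2] (n x) : ℕ) : K) / (m : K), ?_, ?_, ?_⟩
    · rw [hO, map_div₀, map_natCast, map_natCast, div_eq_mul_inv]
      exact memLocalRing_mul (memLocalRing_natCast _) (memLocalRing_inv_natCast hM hm2)
    · rw [hO, map_inv₀, map_div₀, map_natCast, map_natCast, inv_div, div_eq_mul_inv]
      exact memLocalRing_mul (memLocalRing_natCast _)
        (memLocalRing_inv_natCast hM (Nat.not_dvd_ordCompl Nat.prime_two hnx))
    · rw [hd]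
      show (n x : K) / (Fintype.card G : K) * _ = _
      have e1 : (n x : K) = (2 : K) ^ (n x).factorization 2 * (ordCompl[2] (n x) : ℕ) := by
        have := Nat.ordProj_mul_ordCompl_eq_self (n x) 2
        exact_mod_cast this.symm
      have e2 : (Fintype.card G : K) = (2 : K) ^ (Nat.card G).factorization 2 * (m : ℕ) := by
        have := Nat.ordProj_mul_ordCompl_eq_self (Nat.card G) 2
        rw [← Nat.card_eq_fintype_card]
        exact_mod_cast this.symm
      have e3 : (2 : K) ^ (Nat.card G).factorization 2 = 2 ^ (n x).factorization 2 *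
          2 ^ ((Nat.card G).factorization 2 - (n x).factorization 2) := by
        rw [← pow_add, Nat.add_sub_cancel' hle]
      have hmK : (m : K) ≠ 0 := Nat.cast_ne_zero.2 hm0
      have h2n : (2 : K) ^ (n x).factorization 2 ≠ 0 := pow_ne_zero _ two_ne_zero
      have h2n' : (2 : K) ^ ((Nat.card G).factorization 2 - (n x).factorization 2) ≠ 0 := pow_ne_zero _ two_ne_zero
      rw [e2, e3, div_mul_eq_mul_div, div_eq_div_iff (mul_ne_zero (mul_ne_zero h2n h2n') hmK) hmK]
      conv_lhs => rw [e1]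
      ring
  have hmain := even_sum hπ hπ' hfac D hi hblock _ hexp
  have hsum : ∑ᶠ χ ∈ B, N χ ^ 2 * ((Nat.card G).factorization 2 - (charDegree (χ : G → ℂ)).factorization 2) =
      ∑ x : B, ((Nat.card G).factorization 2 -
        (charDegree ((x : IrrCharacter G) : G → ℂ)).factorization 2) * D.m x ^ 2 := by
    rw [← finsum_set_coe_eq_finsum_mem, finsum_eq_sum_of_fintype]
    refine Finset.sum_congr rfl fun x _ => ?_
    show _ = _ * mm x ^ 2
    rw [hmm, mul_comm]
  rw [hsum]
  exact hmain

/-- **The parity lemma for generalized characters** (defect group of exponent `2`, even defect, every character of `B`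
occurs with multiplicity `±1` in a generalized character vanishing on the elements of even order). -/
theorem hpar (hM : IsPModular 2 M) (hB : IsPBlock M B) {D : Subgroup G} (hD : IsDefectGroup 2 M B D)
    (hexp : ∀ x ∈ D, x ^ 2 = 1) (hd : Even (blockDefect 2 B))
    (hg : ∀ χ ∈ B, ∃ x : IrrCharacter G → ℤ,
      (∀ g : G, 2 ∣ orderOf g → ∑ᶠ ψ : IrrCharacter G, (x ψ : ℂ) * (ψ : G → ℂ) g = 0) ∧ (x χ = 1 ∨ x χ = -1)) :
    Cfsg.Agent.H101.KS.HPar G B := by
  classical
  have : Fact (Nat.Prime 2) := ⟨Nat.prime_two⟩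
  have : Finite (IrrCharacter G) := finite_irr
  have := Fintype.ofFinite (IrrCharacter G)
  have hm0 : ordCompl[2] (Nat.card G) ≠ 0 := (Nat.ordCompl_pos 2 Nat.card_pos.ne').ne'
  have hζ := Complex.isPrimitiveRoot_exp _ hm0
  refine Cfsg.Agent.H101.KS.hpar_of_par hd (par hM hB hζ fun χ hχ => ?_)
  obtain ⟨x, hx, h1⟩ := hg χ hχ
  refine Cfsg.Agent.H298.KS.isCharOver_of_coeff (p := 2) (m := ordCompl[2] (Nat.card G)) ?_ ?_ χ
    (Cfsg.Agent.H421.KS.irr_mem_range' hM hB hD hexp hχ hζ) (x := x) ?_ h1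
  · intro d hd hd2
    have h4 : d ∣ ordProj[2] (Nat.card G) * ordCompl[2] (Nat.card G) := by
      rwa [Nat.ordProj_mul_ordCompl_eq_self]
    exact Nat.Coprime.dvd_of_dvd_mul_left
      (Nat.Coprime.pow_right _ ((Nat.prime_two.coprime_iff_not_dvd).2 hd2).symm) h4
  · intro z hz
    exact ⟨⟨z, Cfsg.Agent.H421.KS.mem_adjoin_of_pow hm0 hζ hz⟩, rfl⟩
  · intro g hg2
    rw [← hx g hg2, finsum_eq_sum_of_fintype]
    exact Finset.sum_congr rfl fun ψ _ => zsmul_eq_mul _ _

end Cfsg.Agent.H634.Par
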